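import Cfsg.Agent.Forms.Spinor
import Cfsg.Agent.Forms.Hyperbolic
import Cfsg.Agent.Forms.Classify
import Cfsg.Agent.OrthOrder.Count
import Cfsg.Agent.NumTheory.Zsigmondy

/-!
In the commutator subgroup of the isometries of a non-degenerate quadratic space of dimension `2d + 3`
over `GF(q)`, `q` odd, no element has order `p (q^d + 1)`.
-/

set_option autoImplicit false

open QuadraticMap

namespace CfsgLib.SpecBC

open CfsgLib.Forms

variable {F V : Type*} [Field F] [AddCommGroup V] [Module F V] [FiniteDimensional F V]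
  {Q : QuadraticForm F V}

/-- Number of vectors of value one in odd dimension. -/
theorem card_level_odd [Fintype F] (h2 : (2 : F) ≠ 0) {m : ℕ} (hm : 1 ≤ m) (hV : Module.finrank F V = 2 * m + 1)
    (hQ : (polarBilin Q).Nondegenerate) :
    Nat.card {x : V // Q x = 1} = Fintype.card F ^ (2 * m) + Fintype.card F ^ m ∨
      Nat.card {x : V // Q x = 1} + Fintype.card F ^ m = Fintype.card F ^ (2 * m) := by
  classical
  obtain ⟨e, f, x, b, h, hx, hx0, hb⟩ := exists_basis_odd hV hQ
  let φ : ((Fin m → F) × (Fin m → F)) × F → V := fun p =>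
    ∑ i, p.1.1 i • e i + ∑ i, p.1.2 i • f i + p.2 • x
  let ψ : ((Fin m → F) × (Fin m → F)) × F ≃ ((Fin m ⊕ Fin m) ⊕ Unit → F) :=
    { toFun := fun p => Sum.elim (Sum.elim p.1.1 p.1.2) fun _ => p.2
      invFun := fun c => ((fun i => c (.inl (.inl i)), fun i => c (.inl (.inr i))), c (.inr ()))
      left_inv := fun p => rfl
      right_inv := fun c => by funext i; rcases i with (i | i) | i <;> rfl }
  have hφ : ∀ p, b.equivFun.symm (ψ p) = φ p := by
    intro p
    rw [Module.Basis.equivFun_symm_apply, hb, Fintype.sum_sum_type, Fintype.sum_sum_type,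
      Fintype.sum_unique (ι := Unit)]
    rfl
  have hval : ∀ p, Q (φ p) = (∑ i, p.1.1 i * p.1.2 i) + Q x * p.2 ^ 2 := by
    intro p
    have hsum : ∀ (c : Fin m → F) (w : Fin m → V), (∀ i j, polar Q (w i) (w j) = 0) → (∀ i, Q (w i) = 0) →
        ∀ s : Finset (Fin m), Q (∑ i ∈ s, c i • w i) = 0 := by
      intro c w hw hq s
      induction s using Finset.induction_on with
      | empty => simp
      | @insert a s ha ih =>
        rw [Finset.sum_insert ha, QuadraticMap.map_add (⇑Q), ih, QuadraticMap.map_smul, hq, polar_comm,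
          polar_sum_left, Finset.sum_eq_zero fun j _ => by
            rw [polar_smul_left, polar_smul_right, hw j a, smul_zero, smul_zero]]
        simp
    have hee : ∀ i j, polar Q (e i) (e j) = 0 := fun i j => h.ee i j
    have hff : ∀ i j, polar Q (f i) (f j) = 0 := fun i j => h.ff i j
    have hxe := mem_perp_pairSpan.1 hx
    simp only [φ]
    rw [QuadraticMap.map_add (⇑Q), QuadraticMap.map_add (⇑Q), hsum _ _ hee h.qe, hsum _ _ hff h.qf,
      QuadraticMap.map_smul, smul_eq_mul]
    have e1 : polar Q (∑ i, p.1.1 i • e i) (∑ i, p.1.2 i • f i) = ∑ i, p.1.1 i * p.1.2 i := by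
      rw [polar_sum_left]
      refine Finset.sum_congr rfl fun i _ => ?_
      rw [polar_smul_left, polar_comm, polar_sum_left, Finset.sum_eq_single i (fun j _ hj => by
        rw [polar_smul_left, polar_comm, h.ef, if_neg (Ne.symm hj), smul_zero]) (by simp), polar_smul_left,
        polar_comm, h.ef, if_pos rfl, smul_eq_mul, smul_eq_mul, mul_one]
    have e2 : polar Q (∑ i, p.1.1 i • e i + ∑ i, p.1.2 i • f i) (p.2 • x) = 0 := by
      rw [polar_smul_right, polar_add_left, polar_sum_left, polar_sum_left]
      simp [polar_smul_left, polar_comm Q _ x, hxe]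
    rw [e1, e2]; ring
  have hc := CfsgLib.OrthOrder.card_zero_hyp (F := F) m (fun z : F => Q x * z ^ 2 - 1)
  have hcount : Nat.card {v : V // Q v = 1} = Nat.card {p : ((Fin m → F) × (Fin m → F)) × F //
      (∑ i, p.1.1 i * p.1.2 i) + (Q x * p.2 ^ 2 - 1) = 0} := by
    refine (Nat.card_congr ((ψ.trans b.equivFun.symm.toEquiv).subtypeEquiv fun p => ?_)).symm
    rw [Equiv.trans_apply, LinearEquiv.coe_toEquiv, hφ, hval]
    constructor <;> intro e' <;> linear_combination e'
  rw [hcount, hc, Nat.card_eq_fintype_card (α := F)]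
  set q := Fintype.card F with hq
  have hk : Nat.card {z : F // Q x * z ^ 2 - 1 = 0} = 0 ∨ Nat.card {z : F // Q x * z ^ 2 - 1 = 0} = 2 := by
    by_cases hex : ∃ z : F, Q x * z ^ 2 - 1 = 0
    · obtain ⟨z, hz⟩ := hex
      right
      have hz0 : z ≠ 0 := fun e' => by rw [e'] at hz; simp at hz
      rw [Nat.card_eq_fintype_card, Fintype.card_subtype]
      refine Finset.card_eq_two.2 ⟨z, -z, fun e' => hz0 ?_, ?_⟩
      · have : (2 : F) * z = 0 := by linear_combination e'
        exact (mul_eq_zero.1 this).resolve_left h2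
      · ext y
        simp only [Finset.mem_filter, Finset.mem_univ, true_and, Finset.mem_insert, Finset.mem_singleton]
        constructor
        · intro hy
          have : (y - z) * (y + z) = 0 := by
            have h' : Q x * ((y - z) * (y + z)) = 0 := by linear_combination hy - hz
            exact (mul_eq_zero.1 h').resolve_left hx0
          rcases mul_eq_zero.1 this with h' | h'
          · exact Or.inl (sub_eq_zero.1 h')
          · exact Or.inr (eq_neg_of_add_eq_zero_left h')
        · rintro (rfl | rfl)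
          · exact hz
          · linear_combination hz
    · left
      have : IsEmpty {z : F // Q x * z ^ 2 - 1 = 0} := ⟨fun z => hex ⟨z, z.2⟩⟩
      exact Nat.card_of_isEmpty
  have hq1 : 1 ≤ q ^ m := Nat.one_le_pow _ _ Fintype.card_pos
  have e1 : (q ^ m - 1) * q ^ (m - 1) * q = (q ^ m - 1) * q ^ m := by
    rw [mul_assoc, ← pow_succ, Nat.sub_add_cancel hm]
  have e2 : (q ^ m - 1) * q ^ m + q ^ m = q ^ (2 * m) := by
    rw [← Nat.succ_mul, Nat.succ_eq_add_one, Nat.sub_add_cancel hq1, ← pow_add, two_mul]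
  rcases hk with hk | hk <;> rw [hk, e1]
  · exact Or.inr (by omega)
  · exact Or.inl (by omega)

section Perm

/-- A permutation whose non-trivial cycles all have length `k`. -/
theorem sign_of_free {α : Type*} [Fintype α] [DecidableEq α] (σ : Equiv.Perm α) {k : ℕ} (hk : σ ^ k = 1)
    (hfree : ∀ x, σ x ≠ x → ∀ j, (σ ^ j) x = x → k ∣ j) :
    ∃ M : ℕ, σ.support.card = M * k ∧ Equiv.Perm.sign σ = (-1) ^ (M * k + M) := by
  have hmem : ∀ n ∈ σ.cycleType, n = k := by
    intro n hn
    refine Nat.dvd_antisymm ((Equiv.Perm.dvd_of_mem_cycleType hn).trans (orderOf_dvd_of_pow_eq_one hk)) ?_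
    rw [Equiv.Perm.cycleType_def, Multiset.mem_map] at hn
    obtain ⟨c, hc, rfl⟩ := hn
    rw [Finset.mem_val, Equiv.Perm.mem_cycleFactorsFinset_iff] at hc
    obtain ⟨x, hx⟩ : c.support.Nonempty := by
      rw [Finset.nonempty_iff_ne_empty, ne_eq, Equiv.Perm.support_eq_empty_iff]
      exact hc.1.ne_one
    have hpow : ∀ j, (σ ^ j) x = (c ^ j) x := by
      intro j
      induction j with
      | zero => rfl
      | succ j ih =>
        rw [pow_succ', Equiv.Perm.mul_apply, ih, pow_succ', Equiv.Perm.mul_apply]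
        exact (hc.2 _ (Equiv.Perm.pow_apply_mem_support.2 hx)).symm
    refine hfree x ?_ _ ?_
    · rw [← hc.2 x hx]; exact Equiv.Perm.mem_support.1 hx
    · rw [Function.comp_apply, hpow, ← hc.1.orderOf, pow_orderOf_eq_one, Equiv.Perm.one_apply]
  have h1 : σ.cycleType = Multiset.replicate (Multiset.card σ.cycleType) k := Multiset.eq_replicate.2 ⟨rfl, hmem⟩
  refine ⟨Multiset.card σ.cycleType, ?_, ?_⟩
  · conv_lhs => rw [← Equiv.Perm.sum_cycleType, h1, Multiset.sum_replicate, smul_eq_mul]
  · rw [Equiv.Perm.sign_of_cycleType]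
    conv_lhs => rw [h1, Multiset.sum_replicate, smul_eq_mul, Multiset.card_replicate]

end Perm

/-- Isometries as endomorphisms. -/
def toE (Q : QuadraticForm F V) : isom Q →* Module.End F V where
  toFun g := ((g : V ≃ₗ[F] V) : V →ₗ[F] V)
  map_one' := rfl
  map_mul' _ _ := rfl

theorem fixed_gt_one {X : Type*} [Fintype X] [DecidableEq X] (σ : Equiv.Perm X) {p : ℕ} [Fact p.Prime]
    (hσ : σ ^ p = 1) (hdvd : p ∣ Fintype.card X) {x0 : X} (h0 : σ x0 = x0) : ∃ x, x ≠ x0 ∧ σ x = x := by
  have h := Equiv.Perm.card_compl_support_modEq (p := p) (n := 1) (σ := σ) (by rwa [pow_one])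
  have h' : p ∣ (σ.supportᶜ).card := (h.dvd_iff dvd_rfl).2 hdvd
  have hpos : 0 < (σ.supportᶜ).card := Finset.card_pos.2 ⟨x0, by simp [h0]⟩
  obtain ⟨x, hx, hne⟩ := Finset.exists_mem_ne
    (lt_of_lt_of_le (Fact.out : p.Prime).one_lt (Nat.le_of_dvd hpos h')) x0
  exact ⟨x, hne, by simpa using hx⟩

section Main

variable [Fintype F]

theorem main (h2 : (2 : F) ≠ 0) (hQ : (polarBilin Q).Nondegenerate) {p : ℕ} [Fact p.Prime] [CharP F p]
    {d : ℕ} (hd : 2 ≤ d) (hV : Module.finrank F V = 2 * d + 3) (g : isom Q) (hg : g ∈ commutator (isom Q))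
    (hord : orderOf g = p * (Fintype.card F ^ d + 1)) : False := by
  classical
  set q := Fintype.card F with hq
  have : Finite V := Module.finite_of_finite F
  let _ : Fintype V := Fintype.ofFinite V
  have : Finite (Module.End F V) := Finite.of_injective _ DFunLike.coe_injective
  obtain ⟨f, hp, hqf⟩ := FiniteField.card F p
  have hpdvd : p ∣ q := by rw [hq, hqf]; exact dvd_pow_self p f.ne_zero
  have hq2 : q ≠ 2 := by
    intro h
    exact natCard_ne_two h2 (by rwa [Nat.card_eq_fintype_card])
  have hp2 : p ≠ 2 := by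
    intro h
    subst h
    exact h2 (by exact_mod_cast CharP.cast_eq_zero F 2)
  have hp3 : 3 ≤ p := by have := hp.two_le; omega
  have hqodd : Odd q := by rw [hq, hqf]; exact (hp.odd_of_ne_two hp2).pow
  have hq1 : 2 ≤ q := Fintype.one_lt_card
  set m0 := q ^ d + 1 with hm0
  have hpm0 : ¬ p ∣ m0 := fun h => hp.one_lt.ne' (Nat.dvd_one.1 ((Nat.dvd_add_right (dvd_pow hpdvd (by omega))).1 h))
  have hm0e : Even m0 := (hqodd.pow).add_odd odd_one
  obtain ⟨r, hr, hrdvd, hrord⟩ := CfsgLib.Zsigmondy.exists_primitive_prime (a := q) (n := 2 * d) hq1 (by omega) (by omega)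
  have hrm0 : r ∣ m0 := by
    have hfac : q ^ (2 * d) - 1 = (q ^ d + 1) * (q ^ d - 1) := by
      rw [← Nat.sq_sub_sq, one_pow, ← pow_mul, mul_comm]
    rw [hfac] at hrdvd
    refine ((Nat.Prime.dvd_mul hr.out).1 hrdvd).resolve_right fun h => ?_
    have h1 : ((q ^ d : ℕ) : ZMod r) = 1 := by
      rw [← Nat.cast_one, eq_comm, ZMod.natCast_eq_natCast_iff']
      exact (Nat.modEq_iff_dvd' (Nat.one_le_pow _ _ (by omega))).2 h
    rw [Nat.cast_pow] at h1
    have := Nat.le_of_dvd (by omega) (hrord ▸ orderOf_dvd_of_pow_eq_one h1)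
    omega
  have hrp : r ≠ p := fun h => hpm0 (h ▸ hrm0)
  have hrF : (r : F) ≠ 0 := fun h => hrp ((Nat.prime_dvd_prime_iff_eq hp hr.out).1 ((CharP.cast_eq_zero_iff F p r).1 h)).symm
  -- the parts of `g`
  have hN : 0 < p * m0 := by positivity
  set s := g ^ p with hs
  set u := g ^ m0 with hu
  have hgf : IsOfFinOrder g := orderOf_pos_iff.1 (hord ▸ hN)
  have hso : orderOf s = m0 := by
    rw [hs, orderOf_pow' g hp.ne_zero, hord, Nat.gcd_comm, Nat.gcd_eq_left (dvd_mul_right _ _),
      Nat.mul_div_cancel_left _ hp.pos]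
  have huo : orderOf u = p := by
    rw [hu, orderOf_pow' g (by omega), hord, Nat.gcd_comm, Nat.gcd_eq_left (dvd_mul_left _ _),
      Nat.mul_div_cancel _ (by omega)]
  set t := s ^ (m0 / r) with ht
  have hto : orderOf t = r := by
    rw [ht, orderOf_pow' s (Nat.div_pos (Nat.le_of_dvd (by omega) hrm0) hr.out.pos).ne', hso,
      Nat.gcd_eq_right (Nat.div_dvd_of_dvd hrm0), Nat.div_div_self hrm0 (by omega)]
  set S := toE Q s with hS
  set U := toE Q u with hU
  set T := toE Q t with hT
  have hST : Commute S T := (((Commute.refl g).pow_pow _ _).pow_right _).map (toE Q)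
  have hUT : Commute U T := (((Commute.refl g).pow_pow _ _).pow_right _).map (toE Q)
  have hSU : Commute S U := ((Commute.refl g).pow_pow _ _).map (toE Q)
  have hSpow : S ^ m0 = 1 := by rw [hS, ← map_pow, ← hso, pow_orderOf_eq_one, map_one]
  have hUpow : U ^ p = 1 := by rw [hU, ← map_pow, ← huo, pow_orderOf_eq_one, map_one]
  have hTpow : T ^ r = 1 := by rw [hT, ← map_pow, ← hto, pow_orderOf_eq_one, map_one]
  have hinj : Function.Injective (toE Q) := fun a b e => Subtype.ext (LinearEquiv.toLinearMap_injective e)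
  have hiso : ∀ (a : isom Q) (x y : V), polar Q (toE Q a x) (toE Q a y) = polar Q x y := fun a x y =>
    isom_polar a.2 x y
  -- the decomposition
  set Z := LinearMap.ker (T - 1) with hZ
  set W := LinearMap.range (T - 1) with hW
  have hZmem : ∀ x, x ∈ Z ↔ T x = x := fun x => by
    rw [hZ, LinearMap.mem_ker, LinearMap.sub_apply, Module.End.one_apply, sub_eq_zero]
  have hdisj : Disjoint Z W := by
    rw [Submodule.disjoint_def]
    rintro x hx ⟨y, rfl⟩
    have hx' := (hZmem _).1 hx
    have hi : ∀ i : ℕ, (T ^ i) y = y + (i : F) • (T - 1) y := by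
      intro i
      induction i with
      | zero => simp
      | succ i ih =>
        rw [pow_succ', Module.End.mul_apply, ih, map_add, map_smul, hx']
        simp only [LinearMap.sub_apply, Module.End.one_apply, Nat.cast_succ]
        module
    have := hi r
    rw [hTpow, Module.End.one_apply, left_eq_add] at this
    exact (smul_eq_zero.1 this).resolve_left hrF
  have hdim : Module.finrank F W + Module.finrank F Z = 2 * d + 3 := by
    rw [hW, hZ, LinearMap.finrank_range_add_finrank_ker, hV]
  have hsup : Z ⊔ W = ⊤ := by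
    refine Submodule.eq_top_of_finrank_eq ?_
    have := Submodule.finrank_sup_add_finrank_inf_eq Z W
    rw [hdisj.eq_bot, finrank_bot] at this
    rw [hV]; omega
  have hcomm : ∀ A : Module.End F V, Commute A T → (∀ x ∈ Z, A x ∈ Z) ∧ (∀ x ∈ W, A x ∈ W) := by
    intro A hA
    have hA' : ∀ x, T (A x) = A (T x) := fun x => (LinearMap.congr_fun hA.eq x).symm
    refine ⟨fun x hx => ?_, ?_⟩
    · rw [hZmem] at hx ⊢
      rw [hA', hx]
    · rintro _ ⟨y, rfl⟩
      exact ⟨A y, by simp [hA']⟩
  have horth : ∀ w ∈ W, ∀ z ∈ Z, polar Q w z = 0 := by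
    rintro _ ⟨y, rfl⟩ z hz
    have h1 := hiso t y z
    rw [← hT, (hZmem z).1 hz] at h1
    rw [LinearMap.sub_apply, Module.End.one_apply, polar_sub_left, h1, sub_self]
  have hstable : ∀ X : Submodule F V, X ≤ W → (∀ x ∈ X, T x ∈ X) → 2 * d ∣ Module.finrank F X := by
    intro X hX hTX
    let R : Module.End F X := T.restrict hTX
    have hR : R ^ r = 1 := by
      rw [Module.End.pow_restrict r]
      refine LinearMap.ext fun x => Subtype.ext ?_
      show (T ^ r) (x : V) = x
      rw [hTpow]; rfl
    have hRi : Function.Bijective R := by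
      refine (Module.End.isUnit_iff R).1 (IsUnit.of_pow_eq_one hR hr.out.ne_zero)
    let σ : Equiv.Perm X := Equiv.ofBijective _ hRi
    have hσr : σ ^ r = 1 := by
      refine Equiv.ext fun x => ?_
      have hpow : ∀ j, (σ ^ j) x = (R ^ j) x := by
        intro j
        induction j with
        | zero => rfl
        | succ j ih => rw [pow_succ', Equiv.Perm.mul_apply, ih, pow_succ', Module.End.mul_apply]; rfl
      rw [hpow, hR]; rfl
    let _ : Fintype X := Fintype.ofFinite X
    have h := Equiv.Perm.card_compl_support_modEq (p := r) (n := 1) (σ := σ) (by rwa [pow_one])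
    have hfix : σ.supportᶜ = {0} := by
      refine Finset.ext fun x => ?_
      rw [Finset.mem_compl, Equiv.Perm.mem_support, not_not, Finset.mem_singleton]
      constructor
      · intro hx
        refine Subtype.ext (Submodule.disjoint_def.1 hdisj _ ((hZmem _).2 ?_) (hX x.2))
        exact congrArg Subtype.val (show R x = x from hx)
      · rintro rfl
        show R 0 = 0
        rw [map_zero]
    rw [hfix, Finset.card_singleton, Module.card_eq_pow_finrank (K := F), ← ZMod.natCast_eq_natCast_iff,
      Nat.cast_one, Nat.cast_pow] at h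
    exact hrord ▸ orderOf_dvd_of_pow_eq_one h.symm
  have hW0 : W ≠ ⊥ := fun h => by
    have h1 : T = 1 := sub_eq_zero.1 (LinearMap.range_eq_bot.1 h)
    rw [hT, ← map_one (toE Q)] at h1
    rw [hinj h1, orderOf_one] at hto
    exact hr.out.ne_one hto.symm
  have hWdim : Module.finrank F W = 2 * d := by
    obtain ⟨k, hk⟩ := hstable W le_rfl (hcomm T (Commute.refl T)).2
    have h0 : Module.finrank F W ≠ 0 := fun h => hW0 (Submodule.finrank_eq_zero.1 h)
    rcases k with - | - | k
    · omega
    · omega
    · nlinarith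
  have hZdim : Module.finrank F Z = 3 := by omega
  have hirr : ∀ X : Submodule F V, X ≤ W → (∀ x ∈ X, T x ∈ X) → X ≠ ⊥ → X = W := by
    intro X hX hTX hX0
    refine Submodule.eq_of_le_of_finrank_le hX ?_
    rw [hWdim]
    exact Nat.le_of_dvd (Nat.pos_of_ne_zero fun h => hX0 (Submodule.finrank_eq_zero.1 h)) (hstable X hX hTX)
  have hkerT : ∀ A : Module.End F V, Commute A T → ∀ x ∈ W ⊓ LinearMap.ker (A - 1), T x ∈ W ⊓ LinearMap.ker (A - 1) := by
    intro A hA x hx
    refine ⟨(hcomm T (Commute.refl T)).2 x hx.1, ?_⟩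
    have hx2 := hx.2
    rw [SetLike.mem_coe, LinearMap.mem_ker, LinearMap.sub_apply, Module.End.one_apply, sub_eq_zero] at hx2 ⊢
    rw [← Module.End.mul_apply, hA.eq, Module.End.mul_apply, hx2]
  -- `u` is trivial on `W`
  have hUW : ∀ w ∈ W, U w = w := by
    have hbij : Function.Bijective (U.restrict (hcomm U hUT).2) := by
      have hR : (U.restrict (hcomm U hUT).2) ^ p = 1 := by
        rw [Module.End.pow_restrict p]
        refine LinearMap.ext fun x => Subtype.ext ?_
        show (U ^ p) (x : V) = x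
        rw [hUpow]; rfl
      exact (Module.End.isUnit_iff _).1 (IsUnit.of_pow_eq_one hR hp.ne_zero)
    let σ : Equiv.Perm W := Equiv.ofBijective _ hbij
    let _ : Fintype W := Fintype.ofFinite W
    have hσ : σ ^ p = 1 := by
      refine Equiv.ext fun x => Subtype.ext ?_
      have hpow : ∀ j, (((σ ^ j) x : W) : V) = (U ^ j) (x : V) := by
        intro j
        induction j with
        | zero => rfl
        | succ j ih => rw [pow_succ', Equiv.Perm.mul_apply, pow_succ', Module.End.mul_apply, ← ih]; rfl
      rw [hpow, hUpow]; rfl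
    obtain ⟨x, hx, hx'⟩ := fixed_gt_one σ hσ (by
      rw [Module.card_eq_pow_finrank (K := F), hWdim]
      exact dvd_pow hpdvd (by omega)) (x0 := 0) (by show U.restrict (hcomm U hUT).2 0 = 0; rw [map_zero])
    have hne : W ⊓ LinearMap.ker (U - 1) ≠ ⊥ := fun h => hx (Subtype.ext ((Submodule.eq_bot_iff _).1 h x ⟨x.2, by
      rw [SetLike.mem_coe, LinearMap.mem_ker, LinearMap.sub_apply, Module.End.one_apply, sub_eq_zero]
      exact congrArg Subtype.val hx'⟩))
    intro w hw
    rw [← hirr _ inf_le_left (hkerT U hUT) hne] at hw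
    simpa [sub_eq_zero] using hw.2
  -- the nilpotent part on `Z`
  have hZnd : (polarBilin (Q.comp Z.subtype)).Nondegenerate := by
    refine nondegenerate_comp_subtype (Submodule.disjoint_def.2 fun x hx hx' => polar_ext hQ fun y => ?_)
    obtain ⟨z, hz, w, hw, rfl⟩ := Submodule.mem_sup.1 (hsup.symm ▸ Submodule.mem_top : y ∈ Z ⊔ W)
    rw [polar_add_right, mem_perp.1 hx' z hz, polar_comm, horth w hw x hx, add_zero]
  set N : Module.End F V := U - 1 with hN'
  have hNZ : ∀ x ∈ Z, N x ∈ Z := fun x hx => Z.sub_mem ((hcomm U hUT).1 x hx) hx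
  have hNS : Commute N S := hSU.symm.sub_left (Commute.one_left S)
  have hN0 : ∃ z ∈ Z, N z ≠ 0 := by
    by_contra h
    push Not at h
    have : U = 1 := LinearMap.ext fun x => by
      obtain ⟨z, hz, w, hw, rfl⟩ := Submodule.mem_sup.1 (hsup.symm ▸ Submodule.mem_top : x ∈ Z ⊔ W)
      have := h z hz
      rw [hN', LinearMap.sub_apply, Module.End.one_apply, sub_eq_zero] at this
      rw [map_add, this, hUW w hw, Module.End.one_apply]
    rw [hU, ← map_one (toE Q)] at this
    rw [hinj this, orderOf_one] at huo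
    exact hp.ne_one huo.symm
  have : CharP (Module.End F V) p := by
    have : Nontrivial V := Module.nontrivial_of_finrank_pos (R := F) (by omega)
    exact charP_of_injective_algebraMap (FaithfulSMul.algebraMap_injective F (Module.End F V)) p
  have hN3 : ∀ z ∈ Z, N (N (N z)) = 0 := by
    intro z hz
    have hNp : N ^ p = 0 := by rw [hN', sub_pow_char_of_commute _ (Commute.one_right U), hUpow, one_pow, sub_self]
    let M : Module.End F Z := N.restrict hNZ
    have hMp : M ^ p = 0 := by
      rw [Module.End.pow_restrict p]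
      refine LinearMap.ext fun x => Subtype.ext ?_
      show (N ^ p) (x : V) = 0
      rw [hNp]; rfl
    have h3 : LinearMap.ker (M ^ 3) = ⊤ := by
      have := Module.End.ker_pow_eq_ker_pow_finrank_of_le (f := M) (m := p) (by omega)
      rw [hZdim, hMp, LinearMap.ker_zero] at this
      exact this.symm
    have := LinearMap.mem_ker.1 (h3 ▸ Submodule.mem_top : (⟨z, hz⟩ : Z) ∈ LinearMap.ker (M ^ 3))
    exact congrArg Subtype.val this
  have hN2 : ∃ z ∈ Z, N (N z) ≠ 0 := by
    by_contra h
    push Not at h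
    have hexp : ∀ x y, polar Q (N x) y + polar Q x (N y) + polar Q (N x) (N y) = 0 := by
      intro x y
      have h1 := hiso u x y
      have hx : toE Q u x = x + N x := by rw [hN', LinearMap.sub_apply, Module.End.one_apply, ← hU]; abel
      have hy : toE Q u y = y + N y := by rw [hN', LinearMap.sub_apply, Module.End.one_apply, ← hU]; abel
      rw [hx, hy, polar_add_left, polar_add_right, polar_add_right] at h1
      linear_combination h1
    have hsk : ∀ x ∈ Z, ∀ y ∈ Z, polar Q (N x) (N y) = 0 := by
      intro x hx y hy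
      have h1 := hexp x (N y)
      rw [h y hy] at h1
      simpa using h1
    obtain ⟨x, hx, hxv⟩ := hN0
    have hvx : polar Q (N x) x = 0 := by
      have h1 := hexp x x
      rw [hsk x hx x hx, polar_comm Q x (N x)] at h1
      have : (2 : F) * polar Q (N x) x = 0 := by linear_combination h1
      exact (mul_eq_zero.1 this).resolve_left h2
    let M : Module.End F Z := N.restrict hNZ
    have hM : LinearMap.range M ≤ LinearMap.ker M := by
      rintro _ ⟨y, rfl⟩
      exact Subtype.ext (h y y.2)
    have hrank : Module.finrank F (LinearMap.range M) ≤ 1 := by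
      have h1 := LinearMap.finrank_range_add_finrank_ker M
      have h2' := Submodule.finrank_mono hM
      omega
    have hmem : M ⟨x, hx⟩ ∈ LinearMap.range M := ⟨_, rfl⟩
    have hv0 : (⟨M ⟨x, hx⟩, hmem⟩ : LinearMap.range M) ≠ 0 := fun e =>
      hxv (congrArg (fun a : LinearMap.range M => ((a : Z) : V)) e :)
    have hvperp : ∀ y ∈ Z, polar Q (N x) y = 0 := by
      intro y hy
      have hr' : Module.finrank F (LinearMap.range M) = 1 :=
        le_antisymm hrank (Module.finrank_pos_iff_exists_ne_zero.2 ⟨_, hv0⟩)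
      obtain ⟨c, hc⟩ := (finrank_eq_one_iff_of_nonzero' _ hv0).1 hr' ⟨M ⟨y, hy⟩, ⟨_, rfl⟩⟩
      have hc' : c • N x = N y := congrArg (fun a : LinearMap.range M => ((a : Z) : V)) hc
      have h1 := hexp x y
      rw [hsk x hx y hy, ← hc', polar_smul_right, polar_comm Q x (N x), hvx] at h1
      simpa using h1
    apply hxv
    have := polar_ext hZnd (x := (⟨N x, hNZ x hx⟩ : Z)) fun y => by
      show polar (Q.comp Z.subtype) _ y = 0
      have := hvperp y y.2
      simpa [polar] using this
    exact congrArg Subtype.val this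
  -- `s` is a scalar on `Z`
  obtain ⟨x, hx, hxN⟩ := hN2
  let v : Fin 3 → Z := ![⟨x, hx⟩, ⟨N x, hNZ x hx⟩, ⟨N (N x), hNZ _ (hNZ x hx)⟩]
  have hli : LinearIndependent F v := by
    rw [Fintype.linearIndependent_iff]
    intro c hc
    have hc' : c 0 • x + c 1 • N x + c 2 • N (N x) = 0 := by
      have := congrArg Subtype.val hc
      simpa [Fin.sum_univ_three, v] using this
    have e0 : c 0 = 0 := by
      have h := congrArg (fun y => N (N y)) hc'
      simp only [map_add, map_smul, hN3 x hx, map_zero, smul_zero, add_zero] at h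
      exact (smul_eq_zero.1 h).resolve_right hxN
    have e1 : c 1 = 0 := by
      have h := congrArg (fun y => N y) hc'
      simp only [e0, map_add, map_smul, hN3 x hx, zero_smul, map_zero, smul_zero, add_zero, zero_add] at h
      exact (smul_eq_zero.1 h).resolve_right hxN
    have e2 : c 2 = 0 := by
      rw [e0, e1, zero_smul, zero_smul, zero_add, zero_add] at hc'
      exact (smul_eq_zero.1 hc').resolve_right hxN
    intro i
    fin_cases i
    exacts [e0, e1, e2]
  have hspan : Submodule.span F (Set.range v) = ⊤ := hli.span_eq_top_of_card_eq_finrank (by simp [hZdim])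
  obtain ⟨c, hc⟩ := (Submodule.mem_span_range_iff_exists_fun F).1
    (hspan ▸ Submodule.mem_top : (⟨S x, (hcomm S hST).1 x hx⟩ : Z) ∈ Submodule.span F (Set.range v))
  have hc' : S x = c 0 • x + c 1 • N x + c 2 • N (N x) := by
    have := congrArg Subtype.val hc
    simpa [Fin.sum_univ_three, v] using this.symm
  set M : Module.End F V := c 1 • N + c 2 • (N * N) with hM
  have hSM : ∀ z ∈ Z, S z = c 0 • z + M z := by
    intro z hz
    obtain ⟨e, he⟩ := (Submodule.mem_span_range_iff_exists_fun F).1
      (hspan ▸ Submodule.mem_top : (⟨z, hz⟩ : Z) ∈ Submodule.span F (Set.range v))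
    have he' : z = e 0 • x + e 1 • N x + e 2 • N (N x) := by
      have := congrArg Subtype.val he
      simpa [Fin.sum_univ_three, v] using this.symm
    have hNSx : ∀ y, S (N y) = N (S y) := fun y => (LinearMap.congr_fun hNS.eq y).symm
    rw [he']
    simp only [map_add, map_smul, hNSx, hc', hM, LinearMap.add_apply, LinearMap.smul_apply, Module.End.mul_apply,
      hN3 x hx, map_zero, smul_zero, add_zero, smul_add, smul_smul]
    module
  obtain ⟨a, ha⟩ : ∃ a : F, ∀ z ∈ Z, S z = a • z := by
    let SZ : Module.End F Z := S.restrict (hcomm S hST).1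
    have hMZ : ∀ z ∈ Z, M z ∈ Z := fun z hz => by
      have e : M z = S z - c 0 • z := by rw [hSM z hz]; abel
      rw [e]; exact Z.sub_mem ((hcomm S hST).1 z hz) (Z.smul_mem _ hz)
    let MZ : Module.End F Z := M.restrict hMZ
    have hdec : SZ = c 0 • 1 + MZ := LinearMap.ext fun z => Subtype.ext (hSM z z.2)
    have hM3 : MZ ^ 3 = 0 := by
      refine LinearMap.ext fun z => Subtype.ext ?_
      show M (M (M z)) = 0
      have h3 : ∀ y ∈ Z, N (N (N y)) = 0 := hN3
      simp only [hM, LinearMap.add_apply, LinearMap.smul_apply, Module.End.mul_apply, map_add, map_smul,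
        h3 z z.2, h3 _ (hNZ _ z.2), h3 _ (hNZ _ (hNZ _ z.2)), map_zero, smul_zero, add_zero]
    have : Nontrivial Z := Module.nontrivial_of_finrank_pos (R := F) (by omega)
    have : CharP (Module.End F Z) p :=
      charP_of_injective_algebraMap (FaithfulSMul.algebraMap_injective F (Module.End F Z)) p
    have hp2' : SZ ^ p ^ 2 = c 0 ^ p ^ 2 • 1 := by
      rw [hdec, add_pow_char_pow_of_commute _ _ ((Commute.one_left MZ).smul_left (c 0)), smul_pow, one_pow,
        pow_eq_zero_of_le (by nlinarith) hM3, add_zero]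
    have h1m0 : 1 < m0 := by
      have : 1 ≤ q ^ d := Nat.one_le_pow _ _ (by omega)
      omega
    obtain ⟨k, -, hk⟩ := Nat.exists_mul_mod_eq_one_of_coprime
      (((Nat.Prime.coprime_iff_not_dvd hp).2 hpm0).pow_left 2) h1m0
    refine ⟨(c 0 ^ p ^ 2) ^ k, fun z hz => ?_⟩
    have e : SZ ^ (p ^ 2 * k) = SZ := by
      have hSZ : SZ ^ m0 = 1 := by
        rw [Module.End.pow_restrict m0]
        refine LinearMap.ext fun x => Subtype.ext ?_
        show (S ^ m0) (x : V) = x
        rw [hSpow]; rfl
      rw [pow_eq_pow_mod _ hSZ, hk, pow_one]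
    rw [pow_mul, hp2', smul_pow, one_pow] at e
    exact (congrArg Subtype.val (LinearMap.congr_fun e ⟨z, hz⟩)).symm
  have hdet : LinearMap.det S = 1 := by
    let dh : isom Q →* F := LinearMap.det.comp (toE Q)
    have h1 : s ∈ commutator (isom Q) := pow_mem hg p
    exact congrArg Units.val (MonoidHom.mem_ker.1 (Abelianization.commutator_subset_ker dh.toHomUnits h1) :)
  have ha1 : a = 1 := by
    obtain ⟨z0, hz0⟩ : ∃ z0 : Z, Q (z0 : V) = 1 := by
      obtain ⟨y, hy⟩ := exists_value hZnd (by omega) (one_ne_zero : (1 : F) ≠ 0)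
      exact ⟨y, hy⟩
    have h1 := s.2 (z0 : V)
    rw [show (s : V ≃ₗ[F] V) (z0 : V) = a • (z0 : V) from ha _ z0.2, QuadraticMap.map_smul, hz0, smul_eq_mul,
      mul_one] at h1
    refine (mul_self_eq_one_iff.1 h1).resolve_right fun ha' => ?_
    have hinjS : LinearMap.ker (S - 1) = ⊥ := by
      rw [Submodule.eq_bot_iff]
      intro y hy
      rw [LinearMap.mem_ker, LinearMap.sub_apply, Module.End.one_apply, sub_eq_zero] at hy
      obtain ⟨z, hz, w, hw, rfl⟩ := Submodule.mem_sup.1 (hsup.symm ▸ Submodule.mem_top : y ∈ Z ⊔ W)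
      rw [map_add, ha z hz, ha', neg_one_smul] at hy
      have hzz : z = 0 := by
        have hzW : z + z ∈ W := by
          have e : z + z = S w - w := by
            calc z + z = (z + w) + z - w := by abel
              _ = (-z + S w) + z - w := by rw [hy]
              _ = S w - w := by abel
          rw [e]; exact W.sub_mem ((hcomm S hST).2 w hw) hw
        have h3 := Submodule.disjoint_def.1 hdisj _ (Z.add_mem hz hz) hzW
        rw [← two_smul F z] at h3
        exact (smul_eq_zero.1 h3).resolve_left h2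
      rw [hzz, neg_zero, zero_add, zero_add] at hy
      rw [hzz, zero_add]
      by_contra hw0
      have hall := hirr _ inf_le_left (hkerT S hST) (fun h => hw0 ((Submodule.eq_bot_iff _).1 h w ⟨hw, by
        simp [hy]⟩))
      have hS2 : S ^ 2 = 1 := LinearMap.ext fun y => by
        obtain ⟨z, hz, w, hw, rfl⟩ := Submodule.mem_sup.1 (hsup.symm ▸ Submodule.mem_top : y ∈ Z ⊔ W)
        rw [← hall] at hw
        have hw' : S w = w := by simpa [sub_eq_zero] using hw.2
        rw [pow_two, Module.End.mul_apply, map_add, ha z hz, ha', hw', map_add, map_smul, ha z hz, ha', hw']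
        simp
      rw [hS, ← map_pow, ← map_one (toE Q)] at hS2
      have := Nat.le_of_dvd (by omega) (hso ▸ orderOf_dvd_of_pow_eq_one (hinj hS2))
      have := Nat.le_self_pow (show d ≠ 0 by omega) q
      omega
    let b := Module.finBasis F V
    set A := LinearMap.toMatrix b b S with hA
    set G := LinearMap.BilinForm.toMatrix b (polarBilin Q) with hG
    have hdA : A.det = 1 := by rw [hA, LinearMap.det_toMatrix, hdet]
    have hdG : G.det ≠ 0 := (LinearMap.BilinForm.nondegenerate_iff_det_ne_zero b).1 hQ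
    have hd1 : (A - 1).det ≠ 0 := by
      have e : A - 1 = LinearMap.toMatrix b b (S - 1) := by rw [map_sub, LinearMap.toMatrix_one]
      rw [e, LinearMap.det_toMatrix]
      exact fun h0 => absurd hinjS (ne_of_gt (LinearMap.bot_lt_ker_of_det_eq_zero h0))
    have hAG : A.transpose * G * A = G := by
      rw [hA, hG, ← LinearMap.BilinForm.toMatrix_comp]
      exact congrArg _ (LinearMap.ext fun x => LinearMap.ext fun y => hiso s x y)
    have e : (A - 1).transpose * G * A = -(G * (A - 1)) := by
      rw [Matrix.transpose_sub, Matrix.transpose_one, sub_mul, sub_mul, hAG, one_mul, mul_sub, mul_one]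
      abel
    have e' := congrArg Matrix.det e
    rw [Matrix.det_mul, Matrix.det_mul, Matrix.det_transpose, hdA, Matrix.det_neg, Matrix.det_mul, Fintype.card_fin,
      (show Odd (Module.finrank F V) from ⟨d + 1, by omega⟩).neg_one_pow] at e'
    have : (2 : F) * ((A - 1).det * G.det) = 0 := by linear_combination e'
    exact mul_ne_zero hd1 hdG ((mul_eq_zero.1 this).resolve_left h2)
  subst ha1
  simp only [one_smul] at ha
  -- the sign on the vectors of value one
  let σ : Equiv.Perm {x : V // Q x = 1} := levelPerm Q s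
  have hσ : σ ^ m0 = 1 := by rw [← map_pow, ← hso, pow_orderOf_eq_one, map_one]
  have hpowv : ∀ (j : ℕ) (y : {x : V // Q x = 1}), (((σ ^ j) y : {x : V // Q x = 1}) : V) = (S ^ j) (y : V) := by
    intro j y
    rw [← map_pow, hS, ← map_pow]
    rfl
  have hsupp : ∀ y : {x : V // Q x = 1}, σ y = y ↔ (y : V) ∈ Z := by
    intro y
    constructor
    · intro hy
      have hy' : S y = y := congrArg Subtype.val hy
      obtain ⟨z, hz, w, hw, hyzw⟩ := Submodule.mem_sup.1 (hsup.symm ▸ Submodule.mem_top : (y : V) ∈ Z ⊔ W)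
      rw [← hyzw, map_add, ha z hz, add_right_inj] at hy'
      rcases eq_or_ne w 0 with rfl | hw0
      · rw [← hyzw, add_zero]; exact hz
      · exfalso
        have hall := hirr _ inf_le_left (hkerT S hST) (fun h => hw0 ((Submodule.eq_bot_iff _).1 h w ⟨hw, by
          simp [hy']⟩))
        have h1 : S = 1 := LinearMap.ext fun v => by
          obtain ⟨z, hz, w, hw, rfl⟩ := Submodule.mem_sup.1 (hsup.symm ▸ Submodule.mem_top : v ∈ Z ⊔ W)
          rw [← hall] at hw
          have hw' : S w = w := by simpa [sub_eq_zero] using hw.2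
          rw [map_add, ha z hz, hw']; rfl
        rw [hS, ← map_one (toE Q)] at h1
        rw [hinj h1, orderOf_one] at hso
        have : 1 ≤ q ^ d := Nat.one_le_pow _ _ (by omega)
        omega
    · exact fun hy => Subtype.ext (ha _ hy)
  have hfree : ∀ y, σ y ≠ y → ∀ j, (σ ^ j) y = y → m0 ∣ j := by
    intro y hy j hj
    have hj' : (S ^ j) (y : V) = y := by rw [← hpowv, hj]
    obtain ⟨z, hz, w, hw, hyzw⟩ := Submodule.mem_sup.1 (hsup.symm ▸ Submodule.mem_top : (y : V) ∈ Z ⊔ W)
    have hjz : ∀ z ∈ Z, (S ^ j) z = z := by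
      intro z hz
      clear hj hj'
      induction j with
      | zero => rfl
      | succ j ih => rw [pow_succ', Module.End.mul_apply, ih, ha z hz]
    rw [← hyzw, map_add, hjz z hz, add_right_inj] at hj'
    have hw0 : w ≠ 0 := fun e => hy ((hsupp y).2 (by rw [← hyzw, e, add_zero]; exact hz))
    have hall := hirr _ inf_le_left (hkerT (S ^ j) (hST.pow_left j)) (fun h => hw0 ((Submodule.eq_bot_iff _).1 h w
      ⟨hw, by simp [hj']⟩))
    have h1 : S ^ j = 1 := LinearMap.ext fun v => by
      obtain ⟨z, hz, w, hw, rfl⟩ := Submodule.mem_sup.1 (hsup.symm ▸ Submodule.mem_top : v ∈ Z ⊔ W)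
      rw [← hall] at hw
      have hw' : (S ^ j) w = w := by simpa [sub_eq_zero] using hw.2
      rw [map_add, hjz z hz, hw']; rfl
    rw [hS, ← map_pow, ← map_one (toE Q)] at h1
    exact hso ▸ orderOf_dvd_of_pow_eq_one (hinj h1)
  obtain ⟨M', hM', hsign⟩ := sign_of_free σ hσ hfree
  have hsgn1 : Equiv.Perm.sign σ = 1 :=
    Abelianization.commutator_subset_ker ((Equiv.Perm.sign : Equiv.Perm {x : V // Q x = 1} →* ℤˣ).comp (levelPerm Q))
      (pow_mem hg p)
  -- counting
  have hcZ : Fintype.card {x : V // Q x = 1} = M' * m0 + Nat.card {z : Z // Q.comp Z.subtype z = 1} := by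
    rw [← hM']
    have : Nat.card {z : Z // Q.comp Z.subtype z = 1} = σ.supportᶜ.card := by
      rw [← Nat.card_eq_finsetCard]
      exact Nat.card_congr
        { toFun := fun z => ⟨⟨(z.1 : V), z.2⟩, by simp [hsupp]⟩
          invFun := fun y => ⟨⟨(y.1 : V), (hsupp _).1 (Equiv.Perm.notMem_support.1 (Finset.mem_compl.1 y.2))⟩, y.1.2⟩
          left_inv := fun z => rfl
          right_inv := fun y => rfl }
    rw [this, Finset.card_compl]
    have := σ.support.card_le_univ
    omega
  have hLV := card_level_odd h2 (m := d + 1) (by omega) (by omega : Module.finrank F V = 2 * (d + 1) + 1) hQ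
  have hLZ := card_level_odd h2 (m := 1) le_rfl (by omega : Module.finrank F Z = 2 * 1 + 1) hZnd
  rw [Nat.card_eq_fintype_card] at hLV
  rw [hcZ, ← hq] at hLV
  rw [← hq] at hLZ
  -- parity
  have hodd : Odd M' := by
    set L := Nat.card {z : Z // Q.comp Z.subtype z = 1} with hL
    set P := q ^ d with hP
    have e1 : q ^ (d + 1) = P * q := pow_succ q d
    have e2 : q ^ (2 * (d + 1)) = P * q * (P * q) := by rw [two_mul, pow_add, e1]
    rw [e1, e2, hm0] at hLV
    rw [pow_one, mul_one] at hLZ
    have hPodd : Odd P := hqodd.pow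
    have hZ' : Odd M' ∨ ((P + 1 : ℕ) : ℤ) ∣ (q : ℤ) * ((P : ℤ) - 1) := by
      have hodd' : ∀ e : ℤ, Odd e → (M' : ℤ) = (q : ℤ) ^ 2 * ((P : ℤ) - 1) + e → Odd M' := by
        intro e he hM
        rw [← Int.odd_coe_nat, hM]
        exact Even.add_odd (((Int.odd_coe_nat P).2 hPodd).sub_odd odd_one |>.mul_left _) he
      have hqz : Odd (q : ℤ) := (Int.odd_coe_nat q).2 hqodd
      have hP1 : ((P : ℤ) + 1) ≠ 0 := by positivity
      rcases hLV with hv | hv <;> rcases hLZ with hz | hz <;> zify at hv hz <;> push_cast at hv hz ⊢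
      · exact Or.inr ⟨(M' : ℤ) - (q : ℤ) ^ 2 * ((P : ℤ) - 1), by linear_combination hz - hv⟩
      · refine Or.inl (hodd' q hqz (mul_right_cancel₀ hP1 ?_))
        linear_combination hv - hz
      · refine Or.inl (hodd' (-q) hqz.neg (mul_right_cancel₀ hP1 ?_))
        linear_combination hv - hz
      · exact Or.inr ⟨(q : ℤ) ^ 2 * ((P : ℤ) - 1) - (M' : ℤ), by linear_combination hv - hz⟩
    refine hZ'.resolve_right fun hdvd => ?_
    have h1 : 1 ≤ P := Nat.one_le_pow _ _ (by omega)
    rw [show (q : ℤ) * ((P : ℤ) - 1) = ((q * (P - 1) : ℕ) : ℤ) by push_cast [Nat.cast_sub h1]; ring,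
      Int.natCast_dvd_natCast] at hdvd
    have hcop : Nat.Coprime (P + 1) q := by
      obtain ⟨c, hc⟩ : q ∣ P := dvd_pow_self q (by omega)
      rw [hc, add_comm, Nat.coprime_add_mul_left_left]
      exact Nat.coprime_one_left q
    have h2' := hcop.dvd_of_dvd_mul_left hdvd
    have hP2 : 2 ≤ P := le_trans (by omega) (Nat.le_self_pow (show d ≠ 0 by omega) q)
    have := Nat.le_of_dvd (by omega) h2'
    omega
  rw [hsgn1, (show Odd (M' * m0 + M') from (Even.mul_left hm0e _).add_odd hodd).neg_one_pow] at hsign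
  exact absurd hsign (by decide)

end Main

end CfsgLib.SpecBC
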